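import Mathlib

set_option autoImplicit false

/-! helper14, farm Inv2: endomorphisms `x` with `x * x = z • 1` (involutions modulo scalars). Vocabulary. -/

namespace Cfsg.Agent.Lib.Helper14.Inv2

/-- the normal form of `x` with `x * x = z • 1`: `k` cyclic planes `⟨v, x v⟩` and a scalar part (`x = μ`) of
dimension `l` -/
def IsNF {F : Type*} [Field F] {V : Type*} [AddCommGroup V] [Module F V] (x : Module.End F V) (z : F)
    (k l : ℕ) (μ : F) (b : Module.Basis ((Fin k × Fin 2) ⊕ Fin l) F V) : Prop :=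
  (∀ i, x (b (Sum.inl (i, 0))) = b (Sum.inl (i, 1))) ∧
  (∀ i, x (b (Sum.inl (i, 1))) = z • b (Sum.inl (i, 0))) ∧
  (∀ j, x (b (Sum.inr j)) = μ • b (Sum.inr j))

end Cfsg.Agent.Lib.Helper14.Inv2
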