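import Mathlib
import Cfsg.Agent.Lib.Helper14.Inv2.Defs

set_option autoImplicit false

namespace Cfsg.Agent.Lib.Helper14.Inv2

variable {F : Type*} [Field F]

/-- index bijection -/
def glueEquiv (k l : ℕ) : Fin 2 ⊕ ((Fin k × Fin 2) ⊕ Fin l) ≃ (Fin (k + 1) × Fin 2) ⊕ Fin l :=
  (Equiv.sumAssoc _ _ _).symm.trans (Equiv.sumCongr
    (((Equiv.sumCongr (Equiv.uniqueProd (Fin 2) (Fin 1)).symm (Equiv.refl _)).trans
      (Equiv.sumProdDistrib (Fin 1) (Fin k) (Fin 2)).symm).trans
      (Equiv.prodCongr ((finSumFinEquiv (m := 1) (n := k)).trans (finCongr (Nat.add_comm 1 k))) (Equiv.refl _)))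
    (Equiv.refl _))

theorem glueEquiv_inl (k l : ℕ) (s : Fin 2) : glueEquiv k l (Sum.inl s) = Sum.inl (0, s) := by
  simp [glueEquiv]
  rfl

theorem glueEquiv_inr_inl (k l : ℕ) (i : Fin k) (s : Fin 2) :
    glueEquiv k l (Sum.inr (Sum.inl (i, s))) = Sum.inl (i.succ, s) := by
  simp [glueEquiv]

theorem glueEquiv_inr_inr (k l : ℕ) (j : Fin l) :
    glueEquiv k l (Sum.inr (Sum.inr j)) = Sum.inr j := by
  simp [glueEquiv]


theorem exists_nf_glue {V : Type*} [AddCommGroup V] [Module F V] (x : Module.End F V) (z : F)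
    (hx : x * x = z • 1) (v : V) (hv : LinearIndependent F ![v, x v])
    (W : Submodule F V) (hW : ∀ w ∈ W, x w ∈ W) (hc : IsCompl (Submodule.span F {v, x v}) W)
    (k l : ℕ) (μ : F) (b : Module.Basis ((Fin k × Fin 2) ⊕ Fin l) F W)
    (hb : IsNF (x.restrict hW) z k l μ b) :
    ∃ b' : Module.Basis ((Fin (k + 1) × Fin 2) ⊕ Fin l) F V, IsNF x z (k + 1) l μ b' := by
  classical
  have hr : Set.range ![v, x v] = {v, x v} := by
    ext y
    simp [eq_comm, or_comm]
  let bP0 : Module.Basis (Fin 2) F (Submodule.span F (Set.range ![v, x v])) := Module.Basis.span hv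
  have hc' : IsCompl (Submodule.span F (Set.range ![v, x v])) W := by rw [hr]; exact hc
  let B : Module.Basis (Fin 2 ⊕ ((Fin k × Fin 2) ⊕ Fin l)) F V :=
    (bP0.prod b).map (Submodule.prodEquivOfIsCompl _ _ hc')
  have hB1 : ∀ s : Fin 2, B (Sum.inl s) = ![v, x v] s := by
    intro s
    simp [B, bP0, Module.Basis.span_apply]
  have hB2 : ∀ t, B (Sum.inr t) = (b t : V) := by
    intro t
    simp [B]
  let b' := B.reindex (glueEquiv k l)
  have h1 : ∀ s : Fin 2, b' (Sum.inl (0, s)) = ![v, x v] s := by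
    intro s
    rw [← hB1, ← glueEquiv_inl k l s, Module.Basis.reindex_apply, Equiv.symm_apply_apply]
  have h2 : ∀ (i : Fin k) (s : Fin 2), b' (Sum.inl (i.succ, s)) = (b (Sum.inl (i, s)) : V) := by
    intro i s
    rw [← hB2, ← glueEquiv_inr_inl k l i s, Module.Basis.reindex_apply, Equiv.symm_apply_apply]
  have h3 : ∀ j : Fin l, b' (Sum.inr j) = (b (Sum.inr j) : V) := by
    intro j
    rw [← hB2, ← glueEquiv_inr_inr k l j, Module.Basis.reindex_apply, Equiv.symm_apply_apply]
  have hxx : x (x v) = z • v := by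
    have := congrArg (fun T : Module.End F V => T v) hx
    simpa using this
  refine ⟨b', ?_, ?_, ?_⟩
  · intro i
    refine Fin.cases ?_ (fun i => ?_) i
    · rw [h1, h1]; simp
    · rw [h2, h2, ← hb.1 i]; rfl
  · intro i
    refine Fin.cases ?_ (fun i => ?_) i
    · rw [h1, h1]; simpa using hxx
    · rw [h2, h2]
      have := congrArg (Subtype.val) (hb.2.1 i)
      simpa using this
  · intro j
    rw [h3]
    have := congrArg (Subtype.val) (hb.2.2 j)
    simpa using this

end Cfsg.Agent.Lib.Helper14.Inv2
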