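import Mathlib
import Cfsg.Agent.Lib.Helper14.Inv2.NF1

set_option autoImplicit false

namespace Cfsg.Agent.Lib.Helper14.Inv2

variable {F : Type*} [Field F]

/-- [NS] -/
theorem exists_indep {V : Type*} [AddCommGroup V] [Module F V] (x : Module.End F V)
    (h : ∀ c : F, x ≠ c • 1) : ∃ v : V, LinearIndependent F ![v, x v] := by
  by_contra hcon
  push Not at hcon
  obtain ⟨a, ha⟩ := LinearMap.exists_eq_smul_id_of_forall_notLinearIndependent (f := x) hcon
  exact h a ha

/-- [NF] -/
theorem exists_norm_eq [Fintype F] (z δ : F) (hz : z ≠ 0) : ∃ s t : F, s ^ 2 - z * t ^ 2 = δ := by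
  classical
  rcases Nat.even_or_odd (Fintype.card F) with he | ho
  · have h2 : ringChar F = 2 := FiniteField.even_card_iff_char_two.2 (Nat.even_iff.1 he)
    obtain ⟨s, hs⟩ := FiniteField.isSquare_of_char_two h2 δ
    exact ⟨s, 0, by rw [hs]; ring⟩
  · open Polynomial in
    have hf : (X ^ 2 - C δ : F[X]).degree = 2 := degree_X_pow_sub_C (by norm_num) δ
    open Polynomial in
    have hg : (C (-z) * X ^ 2 : F[X]).degree = 2 := by
      rw [degree_C_mul_X_pow 2 (neg_ne_zero.2 hz)]; rfl
    obtain ⟨a, b, hab⟩ := FiniteField.exists_root_sum_quadratic hf hg (Nat.odd_iff.1 ho)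
    refine ⟨a, b, ?_⟩
    simp at hab
    linear_combination hab

/-- a functional separating `v` and `x v` -/
theorem exists_beta {V : Type*} [AddCommGroup V] [Module F V] (v w : V)
    (hv : LinearIndependent F ![v, w]) : ∃ β : V →ₗ[F] F, β v = 0 ∧ β w = 1 := by
  have hw : w ∉ Submodule.span F {v} := by
    intro hmem
    obtain ⟨a, ha⟩ := Submodule.mem_span_singleton.1 hmem
    have := (LinearIndependent.pair_iff.1 hv) a (-1) (by rw [ha]; simp)
    simpa using this.2
  obtain ⟨f, hf, hle⟩ := Submodule.exists_le_ker_of_notMem hw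
  refine ⟨(f w)⁻¹ • f, ?_, ?_⟩
  · have : f v = 0 := hle (Submodule.mem_span_singleton_self v)
    simp [this]
  · simp [hf]

/-- [SPL] -/
theorem exists_inv_compl {V : Type*} [AddCommGroup V] [Module F V] (x : Module.End F V) (z : F)
    (hx : x * x = z • 1) (v : V) (hv : LinearIndependent F ![v, x v]) :
    ∃ W : Submodule F V, (∀ w ∈ W, x w ∈ W) ∧ IsCompl (Submodule.span F {v, x v}) W := by
  obtain ⟨β, h1, h2⟩ := exists_beta v (x v) hv
  have hxx : ∀ u, x (x u) = z • u := by
    intro u
    have := congrArg (fun T : Module.End F V => T u) hx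
    simpa using this
  refine ⟨LinearMap.ker β ⊓ LinearMap.ker (β ∘ₗ x), ?_, ?_⟩
  · intro w hw
    simp only [Submodule.mem_inf, LinearMap.mem_ker, LinearMap.comp_apply] at hw ⊢
    exact ⟨hw.2, by rw [hxx, map_smul, hw.1, smul_zero]⟩
  · constructor
    · rw [Submodule.disjoint_def]
      intro u hu hw
      simp only [Submodule.mem_inf, LinearMap.mem_ker, LinearMap.comp_apply] at hw
      obtain ⟨a, c, rfl⟩ := Submodule.mem_span_pair.1 hu
      have e1 : c = 0 := by
        have := hw.1
        simpa [h1, h2] using this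
      have e2 : a = 0 := by
        have := hw.2
        simpa [h1, h2, hxx, e1] using this
      simp [e1, e2]
    · rw [codisjoint_iff, eq_top_iff]
      intro u _
      have hu : u = (β (x u) • v + β u • x v) + (u - (β (x u) • v + β u • x v)) := by abel
      rw [hu]
      refine Submodule.add_mem_sup (Submodule.mem_span_pair.2 ⟨_, _, rfl⟩) ?_
      simp only [Submodule.mem_inf, LinearMap.mem_ker, LinearMap.comp_apply]
      constructor
      · simp [h1, h2]
      · simp [h1, h2, hxx]

/-- [NF0] -/
theorem exists_nf_scalar {V : Type*} [AddCommGroup V] [Module F V] [FiniteDimensional F V]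
    (z μ : F) : ∃ (l : ℕ) (b : Module.Basis ((Fin 0 × Fin 2) ⊕ Fin l) F V),
      IsNF (μ • (1 : Module.End F V)) z 0 l μ b := by
  refine ⟨Module.finrank F V, (Module.finBasis F V).reindex (Equiv.emptySum _ _).symm, ?_, ?_, ?_⟩
  · intro i; exact i.elim0
  · intro i; exact i.elim0
  · intro j; simp

/-- [NFM] -/
theorem exists_nf {V : Type*} [AddCommGroup V] [Module F V] [FiniteDimensional F V]
    (x : Module.End F V) (z : F) (hx : x * x = z • 1) :
    ∃ (k l : ℕ) (μ : F) (b : Module.Basis ((Fin k × Fin 2) ⊕ Fin l) F V), IsNF x z k l μ b := by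
  induction hd : Module.finrank F V using Nat.strong_induction_on generalizing V with
  | _ d ih =>
    by_cases hs : ∃ c : F, x = c • 1
    · obtain ⟨c, rfl⟩ := hs
      obtain ⟨l, b, hb⟩ := exists_nf_scalar (V := V) z c
      exact ⟨0, l, c, b, hb⟩
    · push Not at hs
      obtain ⟨v, hv⟩ := exists_indep x hs
      obtain ⟨W, hW, hc⟩ := exists_inv_compl x z hx v hv
      have hr : Set.range ![v, x v] = {v, x v} := by
        ext y
        simp [eq_comm, or_comm]
      have h2 : Module.finrank F (Submodule.span F {v, x v}) = 2 := by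
        rw [← hr, finrank_span_eq_card hv]; simp
      have hsum := Submodule.finrank_add_eq_of_isCompl hc
      have hres : (x.restrict hW) * (x.restrict hW) = z • 1 := by
        ext w
        have := congrArg (fun T : Module.End F V => T w) hx
        simpa using this
      obtain ⟨k, l, μ, b, hb⟩ := ih (Module.finrank F W) (by omega) (x.restrict hW) hres rfl
      obtain ⟨b', hb'⟩ := exists_nf_glue x z hx v hv W hW hc k l μ b hb
      exact ⟨k + 1, l, μ, b', hb'⟩

end Cfsg.Agent.Lib.Helper14.Inv2
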