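import Mathlib
import Cfsg.Agent.Lib.Helper14.Inv2.Core1

set_option autoImplicit false
open scoped MatrixGroups Matrix

namespace Cfsg.Agent.Lib.Helper14.Inv2

variable {F : Type*} [Field F]

/-- the algebraic heart of [C3] -/
theorem commute_det_aux {n : ℕ} (x : Matrix (Fin n) (Fin n) F) (z : F)
    (A : Matrix (Fin n) (Fin 2) F) (B : Matrix (Fin 2) (Fin n) F)
    (hBA : B * A = 1) (hxA : x * A = A * !![0, z; 1, 0]) (hBx : B * x = !![0, z; 1, 0] * B) (s t : F) :
    (1 + A * (!![s - 1, t * z; t, s - 1] * B)) * x = x * (1 + A * (!![s - 1, t * z; t, s - 1] * B)) ∧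
    (1 + A * (!![s - 1, t * z; t, s - 1] * B)).det = s ^ 2 - z * t ^ 2 := by
  constructor
  · have hMC : !![s - 1, t * z; t, s - 1] * !![0, z; 1, 0] = !![0, z; 1, 0] * !![s - 1, t * z; t, s - 1] := by
      ext i j
      fin_cases i <;> fin_cases j <;> simp [Matrix.mul_apply, Fin.sum_univ_two] <;> ring
    rw [add_mul, mul_add, one_mul, mul_one]
    congr 1
    rw [Matrix.mul_assoc, Matrix.mul_assoc, hBx, ← Matrix.mul_assoc _ _ B, hMC, ← Matrix.mul_assoc x,
      hxA, Matrix.mul_assoc, Matrix.mul_assoc]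
  · rw [Matrix.det_one_add_mul_comm, Matrix.mul_assoc, hBA, Matrix.mul_one, Matrix.det_fin_two]
    simp
    ring

/-- [C3] -/
theorem exists_commute_det [Fintype F] {n : ℕ} (x : Matrix (Fin n) (Fin n) F) (z : F)
    (hz : z ≠ 0) (hx : x * x = z • 1) (hns : ∀ c : F, x ≠ c • 1) (δ : F) :
    ∃ d : Matrix (Fin n) (Fin n) F, d * x = x * d ∧ d.det = δ := by
  classical
  have hns' : ∀ c : F, (Matrix.toLin' x : Module.End F (Fin n → F)) ≠ c • 1 := by
    intro c hc
    apply hns c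
    apply Matrix.toLin'.injective
    rw [hc, map_smul, Matrix.toLin'_one]
    rfl
  obtain ⟨v, hv⟩ := exists_indep _ hns'
  obtain ⟨β, h1, h2⟩ := exists_beta v _ hv
  obtain ⟨s, t, hst⟩ := exists_norm_eq z δ hz
  rw [Matrix.toLin'_apply] at h2
  -- row vector of β
  let r : Fin n → F := fun j => β (Pi.single j 1)
  have hr : ∀ u : Fin n → F, r ⬝ᵥ u = β u := by
    intro u
    conv_rhs => rw [pi_eq_sum_univ u]
    rw [map_sum]
    simp only [dotProduct, r]
    refine Finset.sum_congr rfl fun j _ => ?_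
    rw [map_smul, smul_eq_mul, mul_comm]
    congr 2
    ext i
    simp [Pi.single_apply, eq_comm]
  have hxxv : x *ᵥ (x *ᵥ v) = z • v := by
    rw [Matrix.mulVec_mulVec, hx, Matrix.smul_mulVec, Matrix.one_mulVec]
  have hrxx : (r ᵥ* x) ᵥ* x = z • r := by
    rw [Matrix.vecMul_vecMul, hx, Matrix.vecMul_smul, Matrix.vecMul_one]
  let A : Matrix (Fin n) (Fin 2) F := Matrix.of fun i s => ![v, x *ᵥ v] s i
  let B : Matrix (Fin 2) (Fin n) F := Matrix.of fun s j => ![r ᵥ* x, r] s j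
  have hBA : B * A = 1 := by
    ext a c
    have e : (B * A) a c = (![r ᵥ* x, r] a) ⬝ᵥ (![v, x *ᵥ v] c) := rfl
    rw [e]
    fin_cases a <;> fin_cases c
    · simp [← Matrix.dotProduct_mulVec, hr, h2]
    · simp [← Matrix.dotProduct_mulVec, hr, hxxv, h1]
    · simp [hr, h1]
    · simp [hr, h2]
  have hxA : x * A = A * !![0, z; 1, 0] := by
    ext i c
    have e : (x * A) i c = (x *ᵥ (![v, x *ᵥ v] c)) i := rfl
    rw [e, Matrix.mul_apply, Fin.sum_univ_two]
    fin_cases c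
    · simp [A]
    · simp [A, hxxv, mul_comm]
  have hBx : B * x = !![0, z; 1, 0] * B := by
    ext a j
    have e : (B * x) a j = ((![r ᵥ* x, r] a) ᵥ* x) j := rfl
    rw [e, Matrix.mul_apply, Fin.sum_univ_two]
    fin_cases a
    · simp [B, hrxx]
    · simp [B]
  obtain ⟨hc, hd⟩ := commute_det_aux x z A B hBA hxA hBx s t
  exact ⟨_, hc, hd.trans hst⟩

/-- [SLF] -/
theorem sl_conj_of_gl_conj [Fintype F] {n : ℕ} (H : Subgroup (GL (Fin n) F))
    (x : Matrix.SpecialLinearGroup (Fin n) F) (z : F)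
    (hx : ((x ^ 2 : Matrix.SpecialLinearGroup (Fin n) F) : Matrix (Fin n) (Fin n) F) = z • 1)
    (hns : ∀ c : F, (x : Matrix (Fin n) (Fin n) F) ≠ c • 1)
    (Q : GL (Fin n) F) (hQ : Q⁻¹ * Matrix.SpecialLinearGroup.toGL x * Q ∈ H) :
    ∃ P : Matrix.SpecialLinearGroup (Fin n) F,
      P⁻¹ * x * P ∈ H.comap (Matrix.SpecialLinearGroup.toGL :
        Matrix.SpecialLinearGroup (Fin n) F →* GL (Fin n) F) := by
  classical
  have hxx : (x : Matrix (Fin n) (Fin n) F) * (x : Matrix (Fin n) (Fin n) F) = z • 1 := by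
    rw [pow_two] at hx; exact hx
  have hn : 0 < n := by
    rcases Nat.eq_zero_or_pos n with rfl | h
    · exact absurd (Subsingleton.elim _ _) (hns 0)
    · exact h
  have hz0 : z ≠ 0 := by
    rintro rfl
    have h1 : ((x : Matrix (Fin n) (Fin n) F) * (x : Matrix (Fin n) (Fin n) F)).det = 1 := by
      rw [Matrix.det_mul, x.2, one_mul]
    have : Nonempty (Fin n) := ⟨⟨0, hn⟩⟩
    rw [hxx, zero_smul, Matrix.det_zero] at h1
    exact zero_ne_one h1
  have hQdet : (Q : Matrix (Fin n) (Fin n) F).det ≠ 0 := by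
    have := Q.isUnit.map (Matrix.detMonoidHom (n := Fin n) (R := F))
    exact this.ne_zero
  obtain ⟨d, hdx, hdd⟩ := exists_commute_det (x : Matrix (Fin n) (Fin n) F) z hz0 hxx hns
    ((Q : Matrix (Fin n) (Fin n) F).det)⁻¹
  have hd0 : d.det ≠ 0 := by rw [hdd]; exact inv_ne_zero hQdet
  let D : GL (Fin n) F := Matrix.GeneralLinearGroup.mkOfDetNeZero d hd0
  have hDx : D * Matrix.SpecialLinearGroup.toGL x = Matrix.SpecialLinearGroup.toGL x * D := by
    apply Units.ext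
    exact hdx
  let P : Matrix.SpecialLinearGroup (Fin n) F := ⟨d * (Q : Matrix (Fin n) (Fin n) F), by
    rw [Matrix.det_mul, hdd, inv_mul_cancel₀ hQdet]⟩
  have hP : Matrix.SpecialLinearGroup.toGL P = D * Q := by
    apply Units.ext
    rfl
  refine ⟨P, ?_⟩
  rw [Subgroup.mem_comap, map_mul, map_mul, map_inv, hP]
  have : (D * Q)⁻¹ * Matrix.SpecialLinearGroup.toGL x * (D * Q) = Q⁻¹ * Matrix.SpecialLinearGroup.toGL x * Q := by
    rw [mul_inv_rev, mul_assoc, mul_assoc, ← mul_assoc _ D Q, ← hDx, mul_assoc D, ← mul_assoc D⁻¹,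
      inv_mul_cancel, one_mul, mul_assoc]
  rw [this]
  exact hQ

end Cfsg.Agent.Lib.Helper14.Inv2
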