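import Mathlib
import Cfsg.Prelude.Def_GeometricClasses
import Cfsg.Agent.Lib.Helper99.SubfieldGrp

set_option autoImplicit false
open scoped MatrixGroups Matrix

namespace Cfsg.Agent.Lib.Helper14.Inv2

variable {F : Type*} [Field F]

/-- [WIT] -/
theorem exists_witness (k : ℕ) (hk : 0 < k) (z : F) (hz : (-z) ^ k = 1) :
    ∃ x : Matrix.SpecialLinearGroup (Fin (2 * k)) F,
      (x : Matrix (Fin (2 * k)) (Fin (2 * k)) F) * (x : Matrix (Fin (2 * k)) (Fin (2 * k)) F) = z • 1 ∧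
      ∀ c : F, (x : Matrix (Fin (2 * k)) (Fin (2 * k)) F) ≠ c • 1 := by
  classical
  let e : Fin 2 × Fin k ≃ Fin (2 * k) := finProdFinEquiv
  let Y : Matrix (Fin 2 × Fin k) (Fin 2 × Fin k) F := Matrix.blockDiagonal (fun _ : Fin k => !![0, z; 1, 0])
  let X : Matrix (Fin (2 * k)) (Fin (2 * k)) F := Matrix.reindex e e Y
  have hC : (!![0, z; 1, 0] : Matrix (Fin 2) (Fin 2) F) * !![0, z; 1, 0] = z • 1 := by
    ext i j
    fin_cases i <;> fin_cases j <;> simp [Matrix.mul_apply, Fin.sum_univ_two]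
  have hYY : Y * Y = z • 1 := by
    simp only [Y]
    rw [← Matrix.blockDiagonal_mul]
    have : (fun _ : Fin k => (!![0, z; 1, 0] : Matrix (Fin 2) (Fin 2) F) * !![0, z; 1, 0]) = z • (1 : Fin k → Matrix (Fin 2) (Fin 2) F) := by
      funext i
      rw [hC]; rfl
    rw [this, Matrix.blockDiagonal_smul, Matrix.blockDiagonal_one]
  have hdet : X.det = 1 := by
    simp only [X]
    rw [Matrix.det_reindex_self]
    simp only [Y]
    rw [Matrix.det_blockDiagonal]
    simp [Matrix.det_fin_two, hz]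
  refine ⟨⟨X, hdet⟩, ?_, ?_⟩
  · show X * X = z • 1
    have hX : X = Y.submatrix e.symm e.symm := rfl
    rw [hX, Matrix.submatrix_mul_equiv, hYY, Matrix.submatrix_smul]
    show z • (Matrix.submatrix (1 : Matrix (Fin 2 × Fin k) (Fin 2 × Fin k) F) e.symm e.symm) = z • 1
    rw [Matrix.submatrix_one_equiv]
  · intro c hc
    have h1 : X (e (1, ⟨0, hk⟩)) (e (0, ⟨0, hk⟩)) = 1 := by
      simp [X, Y, Matrix.blockDiagonal_apply]
    have hc' : X = c • 1 := hc
    rw [hc'] at h1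
    have hne : e (1, ⟨0, hk⟩) ≠ e (0, ⟨0, hk⟩) := by
      intro h
      have := e.injective h
      simp at this
    simp [Matrix.one_apply_ne hne] at h1

/-- [NI], with [SQ] as a hypothesis -/
theorem isSquare_of_mem_subfieldSubgroup_aux {n : ℕ} (hn : 0 < n) (F₀ : Subfield F)
    (hsq : ∀ a : F, a ∈ F₀ → IsSquare a) (y : GL (Fin n) F)
    (hy : y ∈ Cfsg.Geo.subfieldSubgroup F₀ 1) (z : F)
    (hz : (y : Matrix (Fin n) (Fin n) F) * (y : Matrix (Fin n) (Fin n) F) = z • 1) : IsSquare z := by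
  classical
  rw [Cfsg.Agent.Lib.Helper99.mem_subfieldSubgroup_iff] at hy
  obtain ⟨c, hc, h⟩ := hy
  have h' : ∀ i j, c * (y : Matrix (Fin n) (Fin n) F) i j ∈ F₀ := by
    intro i j
    have := h i j
    simpa using this
  have hmem : c ^ 2 * z ∈ F₀ := by
    have e : c ^ 2 * z = ∑ j, (c * (y : Matrix (Fin n) (Fin n) F) ⟨0, hn⟩ j) * (c * (y : Matrix (Fin n) (Fin n) F) j ⟨0, hn⟩) := by
      have := congrFun (congrFun hz ⟨0, hn⟩) ⟨0, hn⟩
      rw [Matrix.mul_apply] at this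
      simp only [Matrix.smul_apply, Matrix.one_apply_eq, smul_eq_mul, mul_one] at this
      rw [← this, Finset.mul_sum]
      refine Finset.sum_congr rfl fun j _ => ?_
      ring
    rw [e]
    exact F₀.sum_mem fun j _ => F₀.mul_mem (h' _ _) (h' _ _)
  obtain ⟨r, hr⟩ := hsq _ hmem
  refine ⟨r / c, ?_⟩
  field_simp
  rw [← pow_two] at hr
  linear_combination hr

end Cfsg.Agent.Lib.Helper14.Inv2
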